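import Cfsg.Agent.Blocks.Subsection.SmallDefect
import Cfsg.Agent.Blocks.Subsection.QuotientBlock

/-!
# Heights in a major subsection and the bound `k(B) ≤ p ^ (2 d - 2)`
-/

set_option autoImplicit false
open Cfsg CfsgLib Polynomial
open CfsgLib.Blocks.HeightZero
open scoped ComplexConjugate

namespace CfsgLib.Blocks.Contrib

universe u

variable {G : Type u} [Group G] [Fintype G] {p : ℕ} {M : Ideal AlgInt} {u : G}
  {H : Subgroup G} [Fintype H] {b : Set (IrrCharacter H)} {B : Set (IrrCharacter G)}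

/-- In a major subsection a height zero row has `p ^ h` times a unit at height `h`. -/
theorem major_scale (hM : IsPModular p M) (hH : H = Subgroup.centralizer ({u} : Set G))
    {k : ℕ} (hu : u ^ p ^ k = 1) (hind : IsInducedBlock M H b B)
    (hmaj : blockDefect p b = blockDefect p B) {j : ℕ}
    (hC : Subgroup.centralizer ({u ^ j} : Set G) = H) (hord : ∃ e, orderOf (u ^ j) = p ^ e)
    {ψ χ : IrrCharacter G} (hψ : ψ ∈ B) (h0 : blockHeight p B (ψ : G → ℂ) = 0) (hχ : χ ∈ B) :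
    ∃ w : ℂ, MemLocalRing M w ∧ contrib p b (u ^ j) ψ χ ≠ 0 ∧
      contrib p b (u ^ j) ψ χ = (p : ℂ) ^ blockHeight p B (χ : G → ℂ) * w := by
  have := isMaximal_of_isPModular hM
  obtain ⟨z, hzO, hz⟩ := exists_omega_contrib hM hC.symm hord hind.1 ψ
  obtain ⟨w, hw, -, he⟩ := exists_unit_scale (p := p) hM hχ
  refine ⟨w * omega (χ : G → ℂ) z, (localRing M).mul_mem hw (memLocalRing_omega hzO χ),
    fun h => (major_facts hM hH hu hind hmaj hC hord).1 χ hχ ψ hψ h0 (by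
      rw [← contrib_conj, h, map_zero]), ?_⟩
  rw [hz, hmaj, he]
  ring

/-- A value divisible by `p ^ h` at all the roots has mean square at least `p ^ (2 h)`. -/
theorem pow_mul_card_le_sum_norm_sq (hM : IsPModular p M) {k h : ℕ} (P : ℤ[X])
    (hP : ∀ μ ∈ primitiveRoots (p ^ k) ℂ,
      ∃ w : ℂ, MemLocalRing M w ∧ aeval μ P ≠ 0 ∧ aeval μ P = (p : ℂ) ^ h * w) :
    ((p : ℝ) ^ (2 * h)) * ((primitiveRoots (p ^ k) ℂ).card : ℝ) ≤
      ∑ μ ∈ primitiveRoots (p ^ k) ℂ, ‖aeval μ P‖ ^ 2 := by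
  classical
  have := isMaximal_of_isPModular hM
  set R := primitiveRoots (p ^ k) ℂ with hR
  choose w hw hne heq using hP
  set W : ℂ → ℂ := fun μ => if hμ : μ ∈ R then w μ hμ else 1 with hW
  obtain ⟨N, hN⟩ := Chars.Apps.exists_intCast_eq_prod (pow_pos hM.1.pos k) P
  have hprod : (N : ℂ) = (p : ℂ) ^ (h * R.card) * ∏ μ ∈ R, W μ := by
    rw [hN, pow_mul, ← Finset.prod_const, ← Finset.prod_mul_distrib]
    exact Finset.prod_congr rfl fun μ hμ => by simp only [hW, dif_pos hμ]; exact heq μ hμ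
  have hdvd := pow_dvd_of_eq_mul hM ((localRing M).prod_mem fun μ hμ => by
    simp only [hW, dif_pos hμ]; exact hw μ hμ) hprod
  have hN0 : N ≠ 0 := fun h0 => by
    rw [h0, Int.cast_zero] at hN
    obtain ⟨μ, hμ, hμ0⟩ := Finset.prod_eq_zero_iff.1 hN.symm
    exact hne μ hμ hμ0
  have habs : (p : ℝ) ^ (h * R.card) ≤ |(N : ℝ)| := by
    have h1 : (p : ℤ) ^ (h * R.card) ≤ |N| :=
      Int.le_of_dvd (abs_pos.2 hN0) (dvd_abs _ _ |>.2 hdvd)
    exact_mod_cast h1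
  have hp0 : (0 : ℝ) < (p : ℝ) := Nat.cast_pos.2 hM.1.pos
  have h2 := Chars.GaloisSum.card_le_sum_of_one_le_prod R
    (fun μ => ‖aeval μ P‖ ^ 2 / (p : ℝ) ^ (2 * h))
    (fun μ hμ => div_pos (pow_pos (norm_pos_iff.2 (hne μ hμ)) 2) (pow_pos hp0 _)) (by
      rw [Finset.prod_div_distrib, Finset.prod_const, Finset.prod_pow, ← norm_prod, ← hN,
        Complex.norm_intCast, one_le_div (by positivity), ← pow_mul,
        show 2 * h * R.card = h * R.card * 2 by ring, pow_mul]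
      exact pow_le_pow_left₀ (by positivity) habs 2)
  rw [← Finset.sum_div, le_div_iff₀ (pow_pos hp0 _)] at h2
  linarith [mul_comm ((p : ℝ) ^ (2 * h)) (R.card : ℝ)]

/-- Brauer–Feit inequalities of a major subsection. -/
theorem major_height_ineq (hM : IsPModular p M) (hH : H = Subgroup.centralizer ({u} : Set G))
    {k : ℕ} (hu : u ^ p ^ k = 1) (hind : IsInducedBlock M H b B)
    (hmaj : blockDefect p b = blockDefect p B) :
    ∃ k₀ k₁ : ℕ, Nat.card B = k₀ + k₁ ∧ 1 ≤ k₀ ∧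
      k₀ ^ 2 + 2 * (p ^ 2 * (k₀ * k₁)) ≤ p ^ (2 * blockDefect p B) * blockRank p b ∧
      4 * (p ^ 2 * k₁) ≤ p ^ (2 * blockDefect p B) := by
  classical
  have := isMaximal_of_isPModular hM
  obtain ⟨P, hP, -, -⟩ := exists_polys hM hH hu hind
  set R := primitiveRoots (p ^ k) ℂ with hR
  set T := B.toFinite.toFinset with hT
  set S₀ := T.filter fun χ : IrrCharacter G => blockHeight p B (χ : G → ℂ) = 0 with hS₀
  set S₁ := T.filter fun χ : IrrCharacter G => ¬ blockHeight p B (χ : G → ℂ) = 0 with hS₁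
  have hmem : ∀ χ ∈ T, χ ∈ B := fun χ hχ => (Set.Finite.mem_toFinset _).1 hχ
  set q : ℝ := (p : ℝ) ^ blockDefect p B with hq
  have hq0 : (0 : ℝ) < q := pow_pos (Nat.cast_pos.2 hM.1.pos) _
  have hRpos : (0 : ℝ) < (R.card : ℝ) := by
    rw [hR, Complex.card_primitiveRoots, Nat.cast_pos, Nat.totient_pos]
    exact pow_pos hM.1.pos k
  -- per root
  have hrow : ∀ μ ∈ R, ∀ χ, ∃ t : ℝ, aeval μ (P χ χ) = (t : ℂ) ∧
      ∑ ψ ∈ T, ‖aeval μ (P χ ψ)‖ ^ 2 = q * t := by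
    intro μ hμ χ
    refine ⟨(∑ ψ ∈ T, ‖aeval μ (P χ ψ)‖ ^ 2) / q, ?_, by field_simp⟩
    have h := (hP μ hμ).2.1 χ
    rw [hmaj] at h
    rw [Complex.ofReal_div, h, hq]
    push_cast
    field_simp [(Nat.cast_ne_zero.2 hM.1.ne_zero : (p : ℂ) ≠ 0)]
  have htot : ∀ μ ∈ R, ∑ χ ∈ T, ∑ ψ ∈ T, ‖aeval μ (P χ ψ)‖ ^ 2 =
      q * (q * (blockRank p b : ℝ)) := by
    intro μ hμ
    apply Complex.ofReal_injective
    rw [Complex.ofReal_sum, Finset.sum_congr rfl fun χ _ => (hP μ hμ).2.1 χ, ← Finset.mul_sum,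
      (hP μ hμ).2.2, hmaj, hq]
    push_cast
    rfl
  have hfwd : ∀ ψ ∈ S₀, ∀ χ ∈ T, (p : ℝ) ^ (2 * blockHeight p B (χ : G → ℂ)) * R.card ≤
      ∑ μ ∈ R, ‖aeval μ (P ψ χ)‖ ^ 2 := by
    intro ψ hψ χ hχ
    obtain ⟨hψT, hψ0⟩ := Finset.mem_filter.1 hψ
    refine pow_mul_card_le_sum_norm_sq hM _ fun μ hμ => ?_
    obtain ⟨⟨j, hC, hord, hval⟩, -⟩ := hP μ hμ
    rw [← hval]
    exact major_scale hM hH hu hind hmaj hC hord (hmem ψ hψT) hψ0 (hmem χ hχ)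
  have hsymm : ∀ μ ∈ R, ∀ χ ψ, ‖aeval μ (P χ ψ)‖ = ‖aeval μ (P ψ χ)‖ := by
    intro μ hμ χ ψ
    obtain ⟨⟨j, hC, hord, hval⟩, -⟩ := hP μ hμ
    rw [← hval, ← hval, ← contrib_conj, Complex.norm_conj]
  have hp1 : (1 : ℝ) ≤ (p : ℝ) := Nat.one_le_cast.2 hM.1.one_le
  have hS₁pow : ∀ χ ∈ S₁, (p : ℝ) ^ 2 ≤ (p : ℝ) ^ (2 * blockHeight p B (χ : G → ℂ)) :=
    fun χ hχ => pow_le_pow_right₀ hp1 (by have := (Finset.mem_filter.1 hχ).2; omega)
  refine ⟨S₀.card, S₁.card, ?_, ?_, ?_, ?_⟩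
  · rw [hS₀, hS₁, Finset.card_filter_add_card_filter_not, hT, Nat.card_coe_set_eq,
      Set.ncard_eq_toFinset_card B B.toFinite]
  · obtain ⟨χ, hχ, h0⟩ := exists_height_zero (p := p) hind.2.1
    exact Finset.card_pos.2 ⟨χ, Finset.mem_filter.2 ⟨(Set.Finite.mem_toFinset _).2 hχ, h0⟩⟩
  · have h1 : ((S₀.card : ℝ) ^ 2 + 2 * ((p : ℝ) ^ 2 * (S₀.card * S₁.card))) * R.card ≤
        q * (q * (blockRank p b : ℝ)) * R.card := by
      calc ((S₀.card : ℝ) ^ 2 + 2 * ((p : ℝ) ^ 2 * (S₀.card * S₁.card))) * R.card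
          = ∑ χ ∈ S₀, (∑ ψ ∈ S₀, (R.card : ℝ) + ∑ ψ ∈ S₁, (p : ℝ) ^ 2 * R.card) +
              ∑ χ ∈ S₁, ∑ ψ ∈ S₀, (p : ℝ) ^ 2 * R.card := by
            simp only [Finset.sum_const, nsmul_eq_mul]
            ring
        _ ≤ ∑ χ ∈ S₀, (∑ ψ ∈ S₀, ∑ μ ∈ R, ‖aeval μ (P χ ψ)‖ ^ 2 +
              ∑ ψ ∈ S₁, ∑ μ ∈ R, ‖aeval μ (P χ ψ)‖ ^ 2) +
              ∑ χ ∈ S₁, ∑ ψ ∈ S₀, ∑ μ ∈ R, ‖aeval μ (P χ ψ)‖ ^ 2 := by
            refine add_le_add (Finset.sum_le_sum fun χ hχ => add_le_add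
              (Finset.sum_le_sum fun ψ hψ => ?_) (Finset.sum_le_sum fun ψ hψ => ?_))
              (Finset.sum_le_sum fun χ hχ => Finset.sum_le_sum fun ψ hψ => ?_)
            · have h := hfwd χ hχ ψ (Finset.mem_filter.1 hψ).1
              rwa [(Finset.mem_filter.1 hψ).2, mul_zero, pow_zero, one_mul] at h
            · exact le_trans (mul_le_mul_of_nonneg_right (hS₁pow ψ hψ) hRpos.le)
                (hfwd χ hχ ψ (Finset.mem_filter.1 hψ).1)
            · rw [Finset.sum_congr rfl fun μ hμ => by rw [hsymm μ hμ χ ψ]]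
              exact le_trans (mul_le_mul_of_nonneg_right (hS₁pow χ hχ) hRpos.le)
                (hfwd ψ hψ χ (Finset.mem_filter.1 hχ).1)
        _ ≤ ∑ χ ∈ T, ∑ ψ ∈ T, ∑ μ ∈ R, ‖aeval μ (P χ ψ)‖ ^ 2 := by
            rw [← Finset.sum_filter_add_sum_filter_not T
              (fun χ : IrrCharacter G => blockHeight p B (χ : G → ℂ) = 0)
              (fun χ => ∑ ψ ∈ T, ∑ μ ∈ R, ‖aeval μ (P χ ψ)‖ ^ 2)]
            refine add_le_add (le_of_eq (Finset.sum_congr rfl fun χ _ =>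
              Finset.sum_filter_add_sum_filter_not _ _ _)) (Finset.sum_le_sum fun χ _ => ?_)
            exact Finset.sum_le_sum_of_subset_of_nonneg (Finset.filter_subset _ _)
              fun ψ _ _ => Finset.sum_nonneg fun μ _ => sq_nonneg _
        _ = _ := by
            rw [Finset.sum_congr rfl fun χ _ => Finset.sum_comm, Finset.sum_comm,
              Finset.sum_congr rfl htot, Finset.sum_const, nsmul_eq_mul, mul_comm]
    have h2 := le_of_mul_le_mul_right h1 hRpos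
    rw [show q * (q * (blockRank p b : ℝ)) = (p : ℝ) ^ (2 * blockDefect p B) * blockRank p b by
      rw [hq]; ring] at h2
    exact_mod_cast h2
  · obtain ⟨χ, hχ, h0⟩ := exists_height_zero (p := p) hind.2.1
    have hχT : χ ∈ T := (Set.Finite.mem_toFinset _).2 hχ
    have hχS : χ ∈ S₀ := Finset.mem_filter.2 ⟨hχT, h0⟩
    have h1 : (p : ℝ) ^ 2 * S₁.card * R.card ≤ q ^ 2 / 4 * R.card := by
      calc (p : ℝ) ^ 2 * S₁.card * R.card = ∑ ψ ∈ S₁, (p : ℝ) ^ 2 * R.card := by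
            rw [Finset.sum_const, nsmul_eq_mul]; ring
        _ ≤ ∑ ψ ∈ S₁, ∑ μ ∈ R, ‖aeval μ (P χ ψ)‖ ^ 2 := Finset.sum_le_sum fun ψ hψ =>
            le_trans (mul_le_mul_of_nonneg_right (hS₁pow ψ hψ) hRpos.le)
              (hfwd χ hχS ψ (Finset.mem_filter.1 hψ).1)
        _ = ∑ μ ∈ R, ∑ ψ ∈ S₁, ‖aeval μ (P χ ψ)‖ ^ 2 := Finset.sum_comm
        _ ≤ ∑ _μ ∈ R, q ^ 2 / 4 := Finset.sum_le_sum fun μ hμ => by
            obtain ⟨t, ht, hsum⟩ := hrow μ hμ χ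
            rw [← Finset.add_sum_erase _ _ hχT, ht, Complex.norm_real, Real.norm_eq_abs,
              sq_abs] at hsum
            have hle := Finset.sum_le_sum_of_subset_of_nonneg
              (f := fun ψ => ‖aeval μ (P χ ψ)‖ ^ 2) (show S₁ ⊆ T.erase χ from fun ψ hψ =>
                Finset.mem_erase.2 ⟨fun h => (Finset.mem_filter.1 hψ).2 (h ▸ h0),
                  (Finset.mem_filter.1 hψ).1⟩) fun ψ _ _ => sq_nonneg _
            nlinarith [sq_nonneg (t - q / 2)]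
        _ = _ := by rw [Finset.sum_const, nsmul_eq_mul]; ring
    have h2 := le_of_mul_le_mul_right h1 hRpos
    rw [hq, ← pow_mul, mul_comm (blockDefect p B) 2] at h2
    have h3 : 4 * ((p : ℝ) ^ 2 * (S₁.card : ℝ)) ≤ (p : ℝ) ^ (2 * blockDefect p B) := by linarith
    exact_mod_cast h3

omit [Fintype G] in
/-- The arithmetic of the Brauer–Feit bound. -/
theorem add_le_of_height_ineq {π k₀ k₁ L : ℕ} (hπ : 2 ≤ π)
    (h1 : k₀ ^ 2 + 2 * (π * (k₀ * k₁)) ≤ L ^ 2) (h2 : 4 * (π * k₁) ≤ π * L) :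
    k₀ + k₁ ≤ L := by
  have h2' : 4 * k₁ ≤ L := Nat.le_of_mul_le_mul_left (by linarith) (by omega : 0 < π)
  by_contra hcon
  push Not at hcon
  rcases Nat.eq_zero_or_pos k₁ with rfl | hk₁
  · simp only [mul_zero, add_zero] at h1 hcon
    nlinarith [Nat.mul_le_mul hcon.le hcon.le]
  have hk₀ : k₀ ≤ L :=
    (Nat.pow_le_pow_iff_left two_ne_zero).1 ((Nat.le_add_right _ _).trans h1)
  obtain ⟨j, rfl⟩ := Nat.exists_eq_add_of_le hk₀
  have hj : j < k₁ := by omega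
  have hk : 2 * (k₀ * k₁) ≤ π * (k₀ * k₁) := Nat.mul_le_mul_right _ hπ
  nlinarith [Nat.mul_le_mul_right k₀ (Nat.succ_le_of_lt hj), Nat.mul_le_mul hj.le hj.le]

end CfsgLib.Blocks.Contrib
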